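import Cfsg.Agent.Lib.H16.TwoPrimes
import Cfsg.Agent.Lib.H01.Hall
import Cfsg.Agent.Lib.H01.Basic
import Cfsg.Agent.Lib.H17.MinNormal

/-!
Order and spectrum of the alternating group: two primes `p, q` with `n < p + q`.
-/

set_option autoImplicit false
set_option linter.style.haveILetI false

namespace Cfsg.Agent.H16

theorem prime_dvd_multiset_lcm {p : ℕ} (hp : p.Prime) (s : Multiset ℕ) (h : p ∣ s.lcm) :
    ∃ a ∈ s, p ∣ a := by
  induction s using Multiset.induction_on with
  | empty =>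
    simp only [Multiset.lcm_zero] at h
    exact absurd (Nat.le_of_dvd one_pos h) (by have := hp.two_le; omega)
  | cons a s ih =>
    rw [Multiset.lcm_cons] at h
    rcases (Nat.Prime.dvd_lcm hp).1 h with h | h
    · exact ⟨a, Multiset.mem_cons_self a s, h⟩
    · obtain ⟨b, hb, hpb⟩ := ih h
      exact ⟨b, Multiset.mem_cons_of_mem hb, hpb⟩

theorem perm_order_mul_le {n : ℕ} (σ : Equiv.Perm (Fin n)) {p q : ℕ} (hp : p.Prime) (hq : q.Prime)
    (hpq : p ≠ q) (h : orderOf σ = p * q) : p + q ≤ n := by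
  have hsum : σ.cycleType.sum ≤ n := by
    rw [Equiv.Perm.sum_cycleType]
    simpa using Finset.card_le_univ σ.support
  have hl : σ.cycleType.lcm = p * q := by rw [Equiv.Perm.lcm_cycleType, h]
  obtain ⟨a, ha, hpa⟩ := prime_dvd_multiset_lcm hp σ.cycleType (by rw [hl]; exact dvd_mul_right _ _)
  obtain ⟨b, hb, hqb⟩ := prime_dvd_multiset_lcm hq σ.cycleType (by rw [hl]; exact dvd_mul_left _ _)
  have hapos : 0 < a := Nat.pos_of_ne_zero (by
    rintro rfl
    have := Equiv.Perm.two_le_of_mem_cycleType ha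
    omega)
  have hbpos : 0 < b := Nat.pos_of_ne_zero (by
    rintro rfl
    have := Equiv.Perm.two_le_of_mem_cycleType hb
    omega)
  have hp2 := hp.two_le
  have hq2 := hq.two_le
  by_cases hab : a = b
  · subst hab
    have hcop : Nat.Coprime p q := (Nat.coprime_primes hp hq).2 hpq
    have hd : p * q ∣ a := hcop.mul_dvd_of_dvd_of_dvd hpa hqb
    have h1 : p * q ≤ a := Nat.le_of_dvd hapos hd
    have h2 : a ≤ σ.cycleType.sum := Multiset.single_le_sum (fun _ _ => Nat.zero_le _) a ha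
    have h3 : p + q ≤ p * q := by nlinarith
    omega
  · obtain ⟨t, ht⟩ := Multiset.exists_cons_of_mem ha
    rw [ht] at hb hsum
    have hb' : b ∈ t := by
      rcases Multiset.mem_cons.1 hb with h' | h'
      · exact absurd h'.symm hab
      · exact h'
    obtain ⟨t', ht'⟩ := Multiset.exists_cons_of_mem hb'
    rw [ht', Multiset.sum_cons, Multiset.sum_cons] at hsum
    have h1 := Nat.le_of_dvd hapos hpa
    have h2 := Nat.le_of_dvd hbpos hqb
    omega

theorem alt_order_mul_le {n : ℕ} (σ : alternatingGroup (Fin n)) {p q : ℕ} (hp : p.Prime) (hq : q.Prime)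
    (hpq : p ≠ q) (h : orderOf σ = p * q) : p + q ≤ n := by
  apply perm_order_mul_le (σ : Equiv.Perm (Fin n)) hp hq hpq
  rw [Subgroup.orderOf_coe, h]

theorem prime_sq_not_dvd_factorial {p n : ℕ} (hp : p.Prime) (hp3 : 3 ≤ p) (h1 : p ≤ n) (h2 : n < 2 * p) :
    ¬ p ^ 2 ∣ n.factorial := by
  have hlog : Nat.log p n < 2 := by
    rw [Nat.log_lt_iff_lt_pow hp.one_lt (by omega)]
    nlinarith
  rw [Nat.Prime.pow_dvd_factorial_iff hp hlog]
  have : n / p = 1 := by
    apply Nat.div_eq_of_lt_le <;> omega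
  simp [this]

/-- `|G| = n!/2` and a prime `p` in `(n/2, n]`: `p ∣ |G|` and `p² ∤ |G|`. -/
theorem card_alt_facts {G : Type*} [Group G] (n : ℕ) (hn : 5 ≤ n)
    (hcard : Nat.card G = Nat.card ↥(alternatingGroup (Fin n))) :
    2 * Nat.card G = n.factorial := by
  haveI : Nontrivial (Fin n) := Fin.nontrivial_iff_two_le.2 (by omega)
  rw [hcard, Nat.card_eq_fintype_card, two_mul_card_alternatingGroup, Fintype.card_perm,
    Fintype.card_fin]

theorem prime_dvd_card_of_alt {G : Type*} [Group G] {n p : ℕ} (h2 : 2 * Nat.card G = n.factorial)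
    (hp : p.Prime) (hp3 : 3 ≤ p) (h1 : p ≤ n) : p ∣ Nat.card G := by
  have : p ∣ 2 * Nat.card G := by
    rw [h2]
    exact (Nat.Prime.dvd_factorial hp).2 h1
  rcases (Nat.Prime.dvd_mul hp).1 this with h | h
  · have := Nat.le_of_dvd (by norm_num) h
    omega
  · exact h

theorem prime_sq_not_dvd_card_of_alt {G : Type*} [Group G] {n p : ℕ} (h2 : 2 * Nat.card G = n.factorial)
    (hp : p.Prime) (hp3 : 3 ≤ p) (h1 : p ≤ n) (h3 : n < 2 * p) : ¬ p ^ 2 ∣ Nat.card G := by
  intro h
  apply prime_sq_not_dvd_factorial hp hp3 h1 h3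
  rw [← h2]
  exact Dvd.dvd.mul_left h 2

/-- `q ∤ p - 1` whenever `p, q` are odd primes with `q < p < 2 q`. -/
theorem not_dvd_pred_of_lt {p q : ℕ} (hp : p.Prime) (hq : q.Prime) (h1 : q < p) (h2 : p < 2 * q)
    (h3 : 2 < q) : ¬ q ∣ p - 1 := by
  rintro ⟨k, hk⟩
  have hk1 : k = 1 := by
    rcases k with _ | _ | k
    · simp at hk
      omega
    · rfl
    · exfalso
      have : q * (k + 1 + 1) ≥ q * 2 := Nat.mul_le_mul_left _ (by omega)
      omega
  subst hk1
  have hp' : p = q + 1 := by omega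
  subst hp'
  rcases hq.eq_two_or_odd' with h | ⟨r, hr⟩
  · omega
  rcases hp.eq_two_or_odd' with h | ⟨s, hs⟩
  · omega
  omega

section Sylow

variable {H : Type*} [Group H] [Finite H]

/-- A group of order `p^a q^b` whose Sylow numbers are forced to be one has an element of order `pq`. -/
theorem exists_order_mul_of_sylow {p q a b : ℕ} (hp : p.Prime) (hq : q.Prime) (hpq : p ≠ q)
    (ha : 1 ≤ a) (hb : 1 ≤ b) (hcard : Nat.card H = p ^ a * q ^ b)
    (h1 : ∀ i, 1 ≤ i → i ≤ b → ¬ q ^ i ≡ 1 [MOD p])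
    (h2 : ∀ j, 1 ≤ j → j ≤ a → ¬ p ^ j ≡ 1 [MOD q]) :
    ∃ x : H, orderOf x = p * q := by
  haveI : Fact p.Prime := ⟨hp⟩
  haveI : Fact q.Prime := ⟨hq⟩
  have hcop : Nat.Coprime (p ^ a) (q ^ b) :=
    Nat.Coprime.pow _ _ ((Nat.coprime_primes hp hq).2 hpq)
  have hfp : (Nat.card H).factorization p = a := by
    rw [hcard, Nat.factorization_mul (pow_ne_zero _ hp.ne_zero) (pow_ne_zero _ hq.ne_zero)]
    simp [hp.factorization, hq.factorization, hpq.symm, Finsupp.single_apply]
  have hfq : (Nat.card H).factorization q = b := by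
    rw [hcard, Nat.factorization_mul (pow_ne_zero _ hp.ne_zero) (pow_ne_zero _ hq.ne_zero)]
    simp [hp.factorization, hq.factorization, hpq, Finsupp.single_apply]
  obtain ⟨P⟩ : Nonempty (Sylow p H) := inferInstance
  obtain ⟨Q⟩ : Nonempty (Sylow q H) := inferInstance
  have hPc : Nat.card (P : Subgroup H) = p ^ a := by rw [P.card_eq_multiplicity, hfp]
  have hQc : Nat.card (Q : Subgroup H) = q ^ b := by rw [Q.card_eq_multiplicity, hfq]
  have hPi : (P : Subgroup H).index = q ^ b := by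
    have := (P : Subgroup H).card_mul_index
    rw [hPc, hcard] at this
    exact Nat.eq_of_mul_eq_mul_left (pow_pos hp.pos _) this
  have hQi : (Q : Subgroup H).index = p ^ a := by
    have := (Q : Subgroup H).card_mul_index
    rw [hQc, hcard, mul_comm] at this
    exact Nat.eq_of_mul_eq_mul_right (pow_pos hq.pos _) this
  have hnp : Nat.card (Sylow p H) = 1 := by
    have hd := P.card_dvd_index
    rw [hPi] at hd
    obtain ⟨i, hi, hie⟩ := (Nat.dvd_prime_pow hq).1 hd
    have hm := card_sylow_modEq_one p H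
    rw [hie] at hm ⊢
    rcases Nat.eq_zero_or_pos i with h0 | h0
    · simp [h0]
    · exact absurd hm (h1 i h0 hi)
  have hnq : Nat.card (Sylow q H) = 1 := by
    have hd := Q.card_dvd_index
    rw [hQi] at hd
    obtain ⟨i, hi, hie⟩ := (Nat.dvd_prime_pow hp).1 hd
    have hm := card_sylow_modEq_one q H
    rw [hie] at hm ⊢
    rcases Nat.eq_zero_or_pos i with h0 | h0
    · simp [h0]
    · exact absurd hm (h2 i h0 hi)
  haveI : Subsingleton (Sylow p H) := (Nat.card_eq_one_iff_unique.1 hnp).1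
  haveI : Subsingleton (Sylow q H) := (Nat.card_eq_one_iff_unique.1 hnq).1
  have hPn : (P : Subgroup H).Normal := Sylow.normal_of_subsingleton P
  have hQn : (Q : Subgroup H).Normal := Sylow.normal_of_subsingleton Q
  have hdisj : Disjoint (P : Subgroup H) (Q : Subgroup H) := by
    apply Subgroup.disjoint_of_coprime_natCard
    rw [hPc, hQc]
    exact hcop
  obtain ⟨x, hx⟩ := exists_prime_orderOf_dvd_card' p (by
    rw [hcard]
    exact Dvd.dvd.mul_right (dvd_pow_self p (by omega)) _)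
  obtain ⟨y, hy⟩ := exists_prime_orderOf_dvd_card' q (by
    rw [hcard]
    exact Dvd.dvd.mul_left (dvd_pow_self q (by omega)) _)
  have hxP : x ∈ (P : Subgroup H) := by
    have hpg : IsPGroup p (Subgroup.zpowers x) := by
      apply IsPGroup.of_card (n := 1)
      rw [Nat.card_zpowers, hx, pow_one]
    obtain ⟨R, hR⟩ := hpg.exists_le_sylow
    have : R = P := Subsingleton.elim R P
    rw [this] at hR
    exact hR (Subgroup.mem_zpowers x)
  have hyQ : y ∈ (Q : Subgroup H) := by
    have hpg : IsPGroup q (Subgroup.zpowers y) := by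
      apply IsPGroup.of_card (n := 1)
      rw [Nat.card_zpowers, hy, pow_one]
    obtain ⟨R, hR⟩ := hpg.exists_le_sylow
    have : R = Q := Subsingleton.elim R Q
    rw [this] at hR
    exact hR (Subgroup.mem_zpowers y)
  have hc : Commute x y := Subgroup.commute_of_normal_of_disjoint _ _ hPn hQn hdisj x y hxP hyQ
  refine ⟨x * y, ?_⟩
  rw [hc.orderOf_mul_eq_mul_orderOf_of_coprime (by rw [hx, hy]; exact (Nat.coprime_primes hp hq).2 hpq), hx, hy]

end Sylow

section Rho

variable {G : Type*} [Group G] [Finite G]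

/-- Conjugation by an element of order `q` normalising a subgroup of prime order `p`, with `q ∤ p-1`,
is trivial. -/
theorem commute_of_norm_prime {p q : ℕ} (hp : p.Prime) (hq : q.Prime) (hqp : ¬ q ∣ p - 1) {x y : G}
    (hx : orderOf x = p) (hy : orderOf y = q) (hn : y * x * y⁻¹ ∈ Subgroup.zpowers x) :
    Commute x y := by
  haveI : Fact p.Prime := ⟨hp⟩
  obtain ⟨k, hk⟩ := (mem_powers_iff_mem_zpowers.2 hn)
  have hk : x ^ k = y * x * y⁻¹ := hk
  have hpow : ∀ j : ℕ, y ^ j * x * (y ^ j)⁻¹ = x ^ (k ^ j) := by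
    intro j
    induction j with
    | zero => simp
    | succ j ih =>
      have h1 : y ^ (j + 1) * x * (y ^ (j + 1))⁻¹ = y ^ j * (y * x * y⁻¹) * (y ^ j)⁻¹ := by
        rw [pow_succ]
        group
      rw [h1, ← hk, pow_succ k j, pow_mul]
      have h2 : y ^ j * x ^ k * (y ^ j)⁻¹ = (y ^ j * x * (y ^ j)⁻¹) ^ k := by
        rw [conj_pow]
      rw [h2, ih]
  have h1 := hpow q
  rw [← hy, pow_orderOf_eq_one] at h1
  simp only [one_mul, inv_one, mul_one] at h1
  rw [hy] at h1
  have h2 : x ^ (k ^ q) = x ^ 1 := by rw [← h1, pow_one]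
  rw [pow_eq_pow_iff_modEq, hx] at h2
  have h3 : ((k : ZMod p)) ^ q = 1 := by
    have := (ZMod.natCast_eq_natCast_iff _ _ _).2 h2
    simpa using this
  have hk0 : (k : ZMod p) ≠ 0 := by
    intro h0
    rw [h0, zero_pow hq.ne_zero] at h3
    exact zero_ne_one h3
  have h4 := ZMod.pow_card_sub_one_eq_one hk0
  have hcop : Nat.gcd q (p - 1) = 1 := (Nat.Prime.coprime_iff_not_dvd hq).2 hqp
  have h5 : (k : ZMod p) ^ (Nat.gcd q (p - 1)) = 1 := pow_gcd_eq_one.2 ⟨h3, h4⟩
  rw [hcop, pow_one] at h5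
  have h6 : x ^ k = x ^ 1 := by
    rw [pow_eq_pow_iff_modEq, hx]
    apply (ZMod.natCast_eq_natCast_iff _ _ _).1
    simpa using h5
  rw [pow_one] at h6
  rw [h6] at hk
  have : y * x = x * y := by
    calc y * x = y * x * y⁻¹ * y := by group
      _ = x * y := by rw [← hk]
  exact this.symm

/-- Frattini: if `p || |K|` for normal `K`, and `q` divides `|G|` but not `|K|`, and `q ∤ p - 1`, then `G`
has an element of order `pq`. -/
theorem exists_order_mul_of_normal {p q : ℕ} (hp : p.Prime) (hq : q.Prime) (hpq : p ≠ q)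
    (hqp : ¬ q ∣ p - 1) (hp2 : ¬ p ^ 2 ∣ Nat.card G) (hq1 : q ∣ Nat.card G)
    {K : Subgroup G} (hK : K.Normal) (hpK : p ∣ Nat.card K) (hqK : ¬ q ∣ Nat.card K) :
    ∃ g : G, orderOf g = p * q := by
  haveI : Fact p.Prime := ⟨hp⟩
  haveI : Fact q.Prime := ⟨hq⟩
  haveI := hK
  obtain ⟨P⟩ : Nonempty (Sylow p K) := inferInstance
  have hKfac : (Nat.card K).factorization p = 1 := by
    have h1 : 1 ≤ (Nat.card K).factorization p :=
      (hp.dvd_iff_one_le_factorization Nat.card_pos.ne').1 hpK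
    by_contra hne
    have h2 : 2 ≤ (Nat.card K).factorization p := by omega
    have h3 : p ^ 2 ∣ Nat.card K :=
      (hp.pow_dvd_iff_le_factorization Nat.card_pos.ne').2 h2
    exact hp2 (h3.trans (Subgroup.card_subgroup_dvd_card K))
  have hPc : Nat.card (P : Subgroup K) = p := by
    rw [P.card_eq_multiplicity, hKfac, pow_one]
  have hfr := Sylow.normalizer_sup_eq_top P
  set P' : Subgroup G := Subgroup.map K.subtype (P : Subgroup K) with hP'
  have hP'c : Nat.card P' = p := by
    rw [hP', Subgroup.card_map_of_injective K.subtype_injective, hPc]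
  set L : Subgroup G := Subgroup.normalizer (P' : Set G) with hL
  have hsurj : Function.Surjective ((QuotientGroup.mk' K).comp L.subtype) := by
    intro z
    obtain ⟨g, rfl⟩ := QuotientGroup.mk'_surjective K z
    have hg : g ∈ ((L ⊔ K : Subgroup G) : Set G) := by
      rw [hfr]
      trivial
    rw [Subgroup.mul_normal] at hg
    obtain ⟨l, hl, k, hk, rfl⟩ := Set.mem_mul.1 hg
    refine ⟨⟨l, hl⟩, ?_⟩
    simp only [MonoidHom.comp_apply, Subgroup.subtype_apply, QuotientGroup.mk'_apply]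
    rw [QuotientGroup.eq]
    simpa using hk
  have hqQ : q ∣ Nat.card (G ⧸ K) := by
    have h1 := Subgroup.card_eq_card_quotient_mul_card_subgroup K
    rw [h1] at hq1
    rcases (Nat.Prime.dvd_mul hq).1 hq1 with h | h
    · exact h
    · exact absurd h hqK
  have hqL : q ∣ Nat.card L := hqQ.trans (Subgroup.card_dvd_of_surjective _ hsurj)
  obtain ⟨y, hy⟩ := exists_prime_orderOf_dvd_card' q hqL
  obtain ⟨x, hx⟩ := exists_prime_orderOf_dvd_card' p (by rw [hP'c] : p ∣ Nat.card P')
  have hxo : orderOf (x : G) = p := by rw [Subgroup.orderOf_coe, hx]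
  have hyo : orderOf (y : G) = q := by rw [Subgroup.orderOf_coe, hy]
  have hPz : P' = Subgroup.zpowers (x : G) := by
    symm
    apply Subgroup.eq_of_le_of_card_ge
    · rw [Subgroup.zpowers_le]
      exact x.2
    · rw [hP'c, Nat.card_zpowers, hxo]
  have hmem : (y : G) * x * (y : G)⁻¹ ∈ Subgroup.zpowers (x : G) := by
    rw [← hPz]
    have := Subgroup.mem_normalizer_iff.1 y.2 x
    exact this.1 x.2
  have hc := commute_of_norm_prime hp hq hqp hxo hyo hmem
  refine ⟨x * y, ?_⟩
  rw [hc.orderOf_mul_eq_mul_orderOf_of_coprime (by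
    rw [hxo, hyo]
    exact (Nat.coprime_primes hp hq).2 hpq), hxo, hyo]

/-- Element of order `pq` in a quotient lifts. -/
theorem exists_order_of_quotient {N : Subgroup G} [N.Normal] {m : ℕ} (hm : m ≠ 0)
    (h : ∃ u : G ⧸ N, orderOf u = m) : ∃ g : G, orderOf g = m := by
  obtain ⟨u, hu⟩ := h
  obtain ⟨g, rfl⟩ := QuotientGroup.mk'_surjective N u
  have h1 : orderOf (QuotientGroup.mk' N g) ∣ orderOf g := orderOf_map_dvd _ _
  rw [hu] at h1
  exact ⟨g ^ (orderOf g / m), orderOf_pow_orderOf_div (orderOf_pos g).ne' h1⟩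

end Rho

end Cfsg.Agent.H16
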