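import Cfsg.Agent.Lib.H16.CosetEnum

/-!
Order bounds from coset tables: a subgroup generated by words is a quotient of a smaller presented group.
-/

set_option autoImplicit false

namespace Cfsg.Agent.H16.CoxBound

open Cfsg.Agent.H16.CosetEnum

variable {α β : Type} [DecidableEq α] [DecidableEq β]

/-- Coxeter relators go to Coxeter relators along a map of generators. -/
theorem cox_lift (edges' : List (β × ℕ × β)) (edges : List (α × ℕ × α)) {R : Set (FreeGroup α)}
    (hR : Cfsg.Spor.coxRelators edges ⊆ R) (g : β → α)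
    (hn : ∀ x ∈ Cfsg.Spor.coxNodes edges', g x ∈ Cfsg.Spor.coxNodes edges)
    (hl : ∀ x y, Cfsg.Spor.coxLabel edges' x y = Cfsg.Spor.coxLabel edges (g x) (g y)) :
    ∀ r ∈ Cfsg.Spor.coxRelators edges',
      FreeGroup.lift (fun x => (PresentedGroup.of (g x) : PresentedGroup R)) r = 1 := by
  rintro r ⟨x, hx, y, hy, rfl⟩
  simp only [map_pow, map_mul, FreeGroup.lift_apply_of]
  rw [hl]
  have : (PresentedGroup.of (g x) * PresentedGroup.of (g y) : PresentedGroup R) ^
      Cfsg.Spor.coxLabel edges (g x) (g y) =
      PresentedGroup.mk R ((FreeGroup.of (g x) * FreeGroup.of (g y)) ^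
      Cfsg.Spor.coxLabel edges (g x) (g y)) := by
    simp [PresentedGroup.of]
  rw [this]
  exact PresentedGroup.one_of_mem (hR ⟨_, hn x hx, _, hn y hy, rfl⟩)

/-- A subgroup contained in the range of a map from a finite presented group. -/
theorem card_le_of_le_range {G G' : Type*} [Group G] [Group G'] [Finite G'] (φ : G' →* G) {T : Subgroup G}
    (hT : T ≤ φ.range) : Finite T ∧ Nat.card T ≤ Nat.card G' := by
  haveI : Finite φ.range := Finite.of_surjective φ.rangeRestrict φ.rangeRestrict_surjective
  refine ⟨Finite.of_injective (Subgroup.inclusion hT) (Subgroup.inclusion_injective _), ?_⟩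
  exact (Nat.card_le_card_of_injective (Subgroup.inclusion hT) (Subgroup.inclusion_injective _)).trans
    (Nat.card_le_card_of_surjective φ.rangeRestrict φ.rangeRestrict_surjective)

/-- The order of a group from the index and order of a subgroup. -/
theorem finite_card_le {G : Type*} [Group G] {T : Subgroup G} {n m : ℕ} (hn : T.index = n) (hnz : n ≠ 0)
    (hf : Finite T) (hm : Nat.card T ≤ m) : Finite G ∧ Nat.card G ≤ n * m := by
  have h := Subgroup.card_mul_index T
  rw [hn] at h
  have hp : 0 < Nat.card T := Nat.card_pos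
  refine ⟨Nat.finite_of_card_ne_zero (by rw [← h]; exact (Nat.mul_pos hp (Nat.pos_of_ne_zero hnz)).ne'), ?_⟩
  rw [← h, mul_comm]
  exact Nat.mul_le_mul_left _ hm

end Cfsg.Agent.H16.CoxBound
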