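import Mathlib

/-!
Homomorphisms from a semidirect product with a simple normal factor, and the normal subgroup of index two.
-/

set_option autoImplicit false

namespace Cfsg.Agent.H16.SDInj

open SemidirectProduct

variable {S C Y : Type*} [Group S] [Group C] [Group Y] {phi : C →* MulAut S}

/-- A homomorphism from `S ⋊ C`, nontrivial on the simple group `S`, with `C` acting faithfully, is injective. -/
theorem sd_inj [IsSimpleGroup S] (pi : S ⋊[phi] C →* Y)
    (hnt : ∃ s, pi (inl s) ≠ 1)
    (hodd : ∀ k : S ⋊[phi] C, k.right ≠ 1 → ∃ s, k * inl s ≠ inl s * k) :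
    Function.Injective pi := by
  have hK : pi.ker.Normal := MonoidHom.normal_ker pi
  have hL : (pi.ker.comap (inl : S →* S ⋊[phi] C)).Normal := hK.comap _
  have hL' : ∀ x : S ⋊[phi] C, x ∈ pi.ker → x.right = 1 → x = 1 := by
    rcases IsSimpleGroup.eq_bot_or_eq_top_of_normal _ hL with h | h
    · intro x hx hr
      have e : x = inl x.left := by
        apply SemidirectProduct.ext <;> simp [hr]
      have h2 : x.left ∈ pi.ker.comap (inl : S →* S ⋊[phi] C) := by
        rw [Subgroup.mem_comap, ← e]
        exact hx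
      rw [h, Subgroup.mem_bot] at h2
      rw [e, h2, map_one]
    · obtain ⟨s, hs⟩ := hnt
      have : s ∈ pi.ker.comap (inl : S →* S ⋊[phi] C) := by rw [h]; trivial
      exact absurd (MonoidHom.mem_ker.1 (Subgroup.mem_comap.1 this)) hs
  rw [injective_iff_map_eq_one]
  intro k hk
  have hk' : k ∈ pi.ker := MonoidHom.mem_ker.2 hk
  by_cases hr : k.right = 1
  · exact hL' k hk' hr
  · obtain ⟨s, hs⟩ := hodd k hr
    exfalso
    apply hs
    have hc : k * inl s * k⁻¹ * (inl s)⁻¹ ∈ pi.ker := MonoidHom.mem_ker.2 (by simp [hk])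
    have hc1 := hL' _ hc (by simp [SemidirectProduct.mul_right, SemidirectProduct.inv_right])
    have h3 : k * inl s * k⁻¹ = inl s := mul_inv_eq_one.1 hc1
    exact mul_inv_eq_iff_eq_mul.1 h3

/-- A semidirect product with a group of order two has the factor as a normal subgroup of index two,
and this transports along an isomorphism. -/
theorem sd_conclusion (hC : Nat.card C = 2) (Phi : S ⋊[phi] C ≃* Y) :
    ∃ N : Subgroup Y, N.Normal ∧ N.index = 2 ∧ Nonempty (N ≃* S) := by
  let psi : Y →* C := (rightHom : S ⋊[phi] C →* C).comp Phi.symm.toMonoidHom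
  have hsurj : Function.Surjective psi := by
    intro c
    obtain ⟨g, hg⟩ := rightHom_surjective (φ := phi) (N := S) c
    exact ⟨Phi g, by simpa [psi] using hg⟩
  refine ⟨psi.ker, MonoidHom.normal_ker psi, ?_, ?_⟩
  · rw [Subgroup.index_ker, MonoidHom.range_eq_top.2 hsurj, Nat.card_congr Subgroup.topEquiv.toEquiv, hC]
  · have hmem : ∀ s : S, Phi (inl s) ∈ psi.ker := by
      intro s
      simp [psi, MonoidHom.mem_ker]
    let f : S →* psi.ker := ((Phi.toMonoidHom.comp (inl : S →* S ⋊[phi] C)).codRestrict psi.ker hmem)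
    refine ⟨(MulEquiv.ofBijective f ⟨?_, ?_⟩).symm⟩
    · intro s t hst
      have : Phi (inl s) = Phi (inl t) := congrArg Subtype.val hst
      exact inl_injective (Phi.injective this)
    · rintro ⟨n, hn⟩
      have hr : (Phi.symm n).right = 1 := MonoidHom.mem_ker.1 hn
      refine ⟨(Phi.symm n).left, Subtype.ext ?_⟩
      show Phi (inl (Phi.symm n).left) = n
      have e : inl (Phi.symm n).left = Phi.symm n := by
        apply SemidirectProduct.ext <;> simp [hr]
      rw [e]
      simp

end Cfsg.Agent.H16.SDInj
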