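import Mathlib

/-!
One step of a verified stabiliser chain: a transversal and Schreier certificate show
`H ⊓ stabilizer b = H'` and `|H| = n * |H'|`.
-/

set_option autoImplicit false

namespace Cfsg.Agent.H16.SS

open MulAction

variable {G : Type*} [Group G] [Finite G]

theorem closure_subset (H' : Subgroup G) (T : Set G) (S : Set G) (h1 : (1 : G) ∈ T)
    (h : ∀ r ∈ T, ∀ s ∈ S, ∃ r' ∈ T, ∃ k ∈ H', s * r = r' * k) :
    ∀ x ∈ Subgroup.closure S, ∃ r ∈ T, ∃ k ∈ H', x = r * k := by
  let W : Set G := {x | ∃ r ∈ T, ∃ k ∈ H', x = r * k}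
  have key : ∀ y ∈ Subgroup.closure S, ∀ w ∈ W, y * w ∈ W := by
    intro y hy
    induction hy using Subgroup.closure_induction with
    | mem s hs =>
      rintro _ ⟨r, hr, k, hk, rfl⟩
      obtain ⟨r', hr', k', hk', e⟩ := h r hr s hs
      exact ⟨r', hr', k' * k, H'.mul_mem hk' hk, by rw [← mul_assoc, e, mul_assoc]⟩
    | one =>
      intro w hw
      simpa using hw
    | mul a b _ _ ha hb =>
      intro w hw
      rw [mul_assoc]
      exact ha _ (hb _ hw)
    | inv a _ ha =>
      intro w hw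
      have hWf : W.Finite := Set.toFinite W
      have hmap : Set.MapsTo (fun p => a * p) W W := fun p hp => ha p hp
      have hinj : Set.InjOn (fun p : G => a * p) W := fun _ _ _ _ e => mul_left_cancel e
      obtain ⟨p, hp, hpe⟩ := ((hWf.injOn_iff_bijOn_of_mapsTo hmap).1 hinj).surjOn hw
      have : a⁻¹ * w = p := by
        rw [← hpe]
        simp
      rw [this]
      exact hp
  intro x hx
  have := key x hx 1 ⟨1, h1, 1, H'.one_mem, by simp⟩
  rw [mul_one] at this
  exact this

variable {X : Type*} [MulAction G X]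

theorem level_core (H H' : Subgroup G) (S : Set G) (hS : Subgroup.closure S = H) {n : ℕ}
    (rep : ℕ → G) (b : X) (h0 : rep 0 = 1) (hn : 0 < n) (hrep : ∀ i, i < n → rep i ∈ H)
    (hH' : H' ≤ H) (hb : ∀ k ∈ H', k • b = b)
    (hinj : ∀ i, i < n → ∀ j, j < n → rep i • b = rep j • b → i = j)
    (hs : ∀ i, i < n → ∀ s ∈ S, ∃ j, j < n ∧ ∃ k ∈ H', s * rep i = rep j * k) :
    H ⊓ stabilizer G b = H' ∧ Nat.card H = n * Nat.card H' := by
  have hcov : ∀ x ∈ H, ∃ i, i < n ∧ ∃ k ∈ H', x = rep i * k := by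
    subst hS
    intro x hx
    obtain ⟨r, ⟨i, hi, rfl⟩, k, hk, he⟩ := closure_subset H' {r | ∃ i, i < n ∧ rep i = r} S
      ⟨0, hn, h0⟩ (by
        rintro _ ⟨i, hi, rfl⟩ s hs'
        obtain ⟨j, hj, k, hk, e⟩ := hs i hi s hs'
        exact ⟨rep j, ⟨j, hj, rfl⟩, k, hk, e⟩) x hx
    exact ⟨i, hi, k, hk, he⟩
  constructor
  · apply le_antisymm
    · rintro x ⟨hx, hxb⟩
      obtain ⟨i, hi, k, hk, rfl⟩ := hcov x hx
      have hxb' : (rep i * k) • b = b := hxb
      rw [mul_smul, hb k hk] at hxb'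
      have h2 : rep i • b = rep 0 • b := by
        rw [hxb', h0, one_smul]
      have h3 := hinj i hi 0 hn h2
      rw [h3, h0, one_mul]
      exact hk
    · intro k hk
      exact ⟨hH' hk, hb k hk⟩
  · let f : Fin n × H' → H := fun p =>
      ⟨rep p.1 * p.2, H.mul_mem (hrep _ p.1.2) (hH' p.2.2)⟩
    have hf : Function.Bijective f := by
      constructor
      · rintro ⟨i, k⟩ ⟨j, l⟩ e
        have e1 : rep i * (k : G) = rep j * (l : G) := congrArg Subtype.val e
        have e2 : rep i • b = rep j • b := by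
          have := congrArg (· • b) e1
          simp only [mul_smul, hb _ k.2, hb _ l.2] at this
          exact this
        have e3 : (i : ℕ) = j := hinj i i.2 j j.2 e2
        have e4 : i = j := Fin.ext e3
        subst e4
        have e5 : (k : G) = l := mul_left_cancel e1
        have e6 : k = l := Subtype.ext e5
        rw [e6]
      · rintro ⟨x, hx⟩
        obtain ⟨i, hi, k, hk, rfl⟩ := hcov x hx
        exact ⟨(⟨i, hi⟩, ⟨k, hk⟩), rfl⟩
    rw [← Nat.card_congr (Equiv.ofBijective f hf), Nat.card_prod, Nat.card_eq_fintype_card,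
      Fintype.card_fin]

/-- word evaluation -/
def evw (gen : ℕ → G) (w : List ℕ) : G := (w.map gen).prod

theorem evw_mem (gen : ℕ → G) (K : Subgroup G) (w : List ℕ) (h : ∀ l ∈ w, gen l ∈ K) :
    evw gen w ∈ K := by
  apply Subgroup.list_prod_mem
  intro x hx
  obtain ⟨l, hl, rfl⟩ := List.mem_map.1 hx
  exact h l hl

/-- The subgroup generated by a list of letters. -/
def gp (gen : ℕ → G) (A : List ℕ) : Subgroup G := Subgroup.closure (gen '' {a | a ∈ A})

theorem gen_mem_gp (gen : ℕ → G) {A : List ℕ} {a : ℕ} (h : a ∈ A) : gen a ∈ gp gen A :=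
  Subgroup.subset_closure ⟨a, h, rfl⟩

theorem level_data (gen : ℕ → G) (A A' : List ℕ) (W : List (List ℕ))
    (C : List (List (ℕ × List ℕ))) (b : X) (n : ℕ) (hw0 : W.getD 0 [] = []) (hn : 0 < n)
    (hW : ∀ i, i < n → ∀ l ∈ W.getD i [], l ∈ A)
    (hA' : ∀ a ∈ A', a ∈ A)
    (hb : ∀ a ∈ A', gen a • b = b)
    (hinj : ∀ i, i < n → ∀ j, j < n → evw gen (W.getD i []) • b = evw gen (W.getD j []) • b → i = j)
    (hc : ∀ i, i < n → ∀ p, p < A.length →
      gen (A.getD p 0) * evw gen (W.getD i []) =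
        evw gen (W.getD ((C.getD i []).getD p (0, [])).1 []) * evw gen ((C.getD i []).getD p (0, [])).2 ∧
      ((C.getD i []).getD p (0, [])).1 < n ∧ ∀ l ∈ ((C.getD i []).getD p (0, [])).2, l ∈ A') :
    gp gen A ⊓ stabilizer G b = gp gen A' ∧ Nat.card (gp gen A) = n * Nat.card (gp gen A') := by
  have hle : gp gen A' ≤ gp gen A := by
    apply (Subgroup.closure_le _).2
    rintro _ ⟨a, ha, rfl⟩
    exact gen_mem_gp gen (hA' a ha)
  have hbb : ∀ k ∈ gp gen A', k • b = b := by
    intro k hk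
    have : gp gen A' ≤ stabilizer G b := by
      apply (Subgroup.closure_le _).2
      rintro _ ⟨a, ha, rfl⟩
      exact hb a ha
    exact this hk
  apply level_core (gp gen A) (gp gen A') (gen '' {a | a ∈ A}) rfl (fun i => evw gen (W.getD i [])) b
    (by
      show evw gen (W.getD 0 []) = 1
      rw [hw0]
      rfl) hn
  · intro i hi
    exact evw_mem gen _ _ (fun l hl => gen_mem_gp gen (hW i hi l hl))
  · exact hle
  · exact hbb
  · exact hinj
  · rintro i hi _ ⟨a, ha, rfl⟩
    have ha' : a ∈ A := ha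
    obtain ⟨p, hp, rfl⟩ := List.mem_iff_getElem.1 ha'
    obtain ⟨h1, h2, h3⟩ := hc i hi p hp
    rw [List.getD_eq_getElem _ _ hp] at h1
    refine ⟨_, h2, _, ?_, h1⟩
    exact evw_mem gen _ _ (fun l hl => gen_mem_gp gen (h3 l hl))

end Cfsg.Agent.H16.SS
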