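import Mathlib

/-!
A sharpening of Bertrand's postulate: for `m ≥ 6` there are two primes in `(m, 2m]`.
-/

set_option autoImplicit false

namespace Cfsg.Agent.H16

open Real

theorem real_main_inequality2 {x : ℝ} (x_large : (512 : ℝ) ≤ x) :
    x * (2 * x) * (2 * x) ^ √(2 * x) * 4 ^ (2 * x / 3) ≤ 4 ^ x := by
  let f : ℝ → ℝ := fun x => log x + log (2 * x) + √(2 * x) * log (2 * x) - log 4 / 3 * x
  have hf' : ∀ x, 0 < x → 0 < x * (2 * x) * (2 * x) ^ √(2 * x) / 4 ^ (x / 3) := fun x h =>
    div_pos (mul_pos (mul_pos h (mul_pos two_pos h)) (rpow_pos_of_pos (mul_pos two_pos h) _))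
      (rpow_pos_of_pos four_pos _)
  have hf : ∀ x, 0 < x → f x = log (x * (2 * x) * (2 * x) ^ √(2 * x) / 4 ^ (x / 3)) := by
    intro x h5
    have h6 := mul_pos (zero_lt_two' ℝ) h5
    have h7 := rpow_pos_of_pos h6 (√(2 * x))
    rw [log_div (mul_pos (mul_pos h5 h6) h7).ne' (rpow_pos_of_pos four_pos _).ne',
      log_mul (mul_pos h5 h6).ne' h7.ne', log_mul h5.ne' h6.ne',
      log_rpow h6, log_rpow zero_lt_four, ← mul_div_right_comm, ← mul_div, mul_comm x]
  have h5 : 0 < x := lt_of_lt_of_le (by norm_num1) x_large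
  rw [← div_le_one (rpow_pos_of_pos four_pos x), ← div_div_eq_mul_div, ← rpow_sub four_pos, ←
    mul_div 2 x, mul_div_left_comm, ← mul_one_sub, (by norm_num1 : (1 : ℝ) - 2 / 3 = 1 / 3),
    mul_one_div, ← log_nonpos_iff (hf' x h5).le, ← hf x h5]
  have hlog2 : ConcaveOn ℝ (Set.Ioi (0.5 : ℝ)) (fun x : ℝ => log (2 * x)) := by
    have h1 : ConcaveOn ℝ (Set.Ioi (0.5 : ℝ)) (fun x : ℝ => log x + log 2) :=
      (strictConcaveOn_log_Ioi.concaveOn.subset (Set.Ioi_subset_Ioi (by norm_num)) (convex_Ioi 0.5)).add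
        (concaveOn_const _ (convex_Ioi 0.5))
    refine h1.congr ?_
    intro y hy
    have hy0 : (0 : ℝ) < y := lt_trans (by norm_num) (Set.mem_Ioi.1 hy)
    simp only
    rw [log_mul two_ne_zero hy0.ne', add_comm]
  have h : ConcaveOn ℝ (Set.Ioi 0.5) f := by
    apply ConcaveOn.sub
    · apply ConcaveOn.add
      · apply ConcaveOn.add
        · exact strictConcaveOn_log_Ioi.concaveOn.subset
            (Set.Ioi_subset_Ioi (by norm_num)) (convex_Ioi 0.5)
        · exact hlog2
      convert!
        ((strictConcaveOn_sqrt_mul_log_Ioi.concaveOn.comp_linearMap ((2 : ℝ) • LinearMap.id)))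
        using 1
      ext x
      simp only [Set.mem_Ioi, Set.mem_preimage, LinearMap.smul_apply,
        LinearMap.id_coe, id_eq, smul_eq_mul]
      rw [← mul_lt_mul_iff_right₀ (two_pos)]
      norm_num1
      rfl
    apply ConvexOn.smul
    · refine div_nonneg (log_nonneg (by norm_num1)) (by norm_num1)
    · exact convexOn_id (convex_Ioi (0.5 : ℝ))
  suffices ∃ x1 x2, 0.5 < x1 ∧ x1 < x2 ∧ x2 ≤ x ∧ 0 ≤ f x1 ∧ f x2 ≤ 0 by
    obtain ⟨x1, x2, h1, h2, h0, h3, h4⟩ := this
    exact (h.right_le_of_le_left'' h1 ((h1.trans h2).trans_le h0) h2 h0 (h4.trans h3)).trans h4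
  refine ⟨18, 512, by norm_num1, by norm_num1, x_large, ?_, ?_⟩
  · have : √(2 * 18 : ℝ) = 6 := (sqrt_eq_iff_mul_self_eq_of_pos (by norm_num1)).mpr (by norm_num1)
    rw [hf _ (by norm_num1), log_nonneg_iff (by positivity), this, one_le_div (by norm_num1)]
    norm_num1
  · have : √(2 * 512) = 32 :=
      (sqrt_eq_iff_mul_self_eq_of_pos (by norm_num1)).mpr (by norm_num1)
    rw [hf _ (by norm_num1), log_nonpos_iff (hf' _ (by norm_num1)).le, this,
        div_le_one (by positivity)]
    have e1 : ((512:ℝ) * (2 * 512) * (2 * 512) ^ ((32:ℕ):ℝ)) = (2:ℝ) ^ ((339:ℕ):ℝ) := by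
      rw [rpow_natCast, rpow_natCast]
      have e0 : ((512:ℝ) * (2 * 512) * (2 * 512) ^ 32) = (2:ℝ)^9 * 2^10 * (2^10)^32 := by norm_num1
      rw [e0, ← pow_mul, ← pow_add, ← pow_add]
    have e2 : ((4:ℝ) ^ ((512:ℝ) / 3)) = (2:ℝ) ^ ((2:ℝ) * (512 / 3)) := by
      rw [rpow_mul (by norm_num1)]
      congr 1
      rw [rpow_two]
      norm_num1
    have e3 : ((32:ℝ)) = ((32:ℕ):ℝ) := by norm_num1
    rw [e3, e1, e2]
    apply rpow_le_rpow_of_exponent_le (by norm_num1)
    norm_num1

open Nat in
theorem main_inequality2 {n : ℕ} (n_large : 512 ≤ n) :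
    n * (2 * n) * (2 * n) ^ Nat.sqrt (2 * n) * 4 ^ (2 * n / 3) ≤ 4 ^ n := by
  rw [← @cast_le ℝ]
  simp only [cast_mul, cast_pow, ← Real.rpow_natCast, cast_ofNat]
  refine _root_.trans ?_ (real_main_inequality2 (by exact_mod_cast n_large))
  gcongr
  · have n2_pos : 0 < 2 * n := by
      have : 0 < n := by omega
      positivity
    exact mod_cast n2_pos
  · exact_mod_cast Real.nat_sqrt_le_real_sqrt
  · norm_num1
  · exact cast_div_le.trans (by norm_cast)

open Nat in
theorem prod_small_le (n : ℕ) (n_pos : 0 < n) :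
    ∏ p ∈ Finset.range (2 * n / 3 + 1), p ^ (centralBinom n).factorization p ≤
      (2 * n) ^ Nat.sqrt (2 * n) * 4 ^ (2 * n / 3) := by
  have n2_pos : 1 ≤ 2 * n := mul_pos (zero_lt_two' ℕ) n_pos
  let S := {p ∈ Finset.range (2 * n / 3 + 1) | Nat.Prime p}
  let f x := x ^ n.centralBinom.factorization x
  have : ∏ x ∈ S, f x = ∏ x ∈ Finset.range (2 * n / 3 + 1), f x := by
    refine Finset.prod_filter_of_ne fun p _ h => ?_
    contrapose h; dsimp only [f]
    rw [factorization_eq_zero_of_not_prime n.centralBinom h, _root_.pow_zero]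
  change ∏ x ∈ Finset.range (2 * n / 3 + 1), f x ≤ _
  rw [← this, ← Finset.prod_filter_mul_prod_filter_not S (· ≤ Nat.sqrt (2 * n))]
  apply mul_le_mul'
  · refine (Finset.prod_le_prod' fun p _ => (?_ : f p ≤ 2 * n)).trans ?_
    · exact pow_factorization_choose_le (mul_pos two_pos n_pos)
    have : (Finset.Icc 1 (Nat.sqrt (2 * n))).card = Nat.sqrt (2 * n) := by rw [card_Icc, Nat.add_sub_cancel]
    rw [Finset.prod_const]
    refine pow_right_mono₀ n2_pos ((Finset.card_le_card fun x hx => ?_).trans this.le)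
    obtain ⟨h1, h2⟩ := Finset.mem_filter.1 hx
    exact Finset.mem_Icc.mpr ⟨(Finset.mem_filter.1 h1).2.one_lt.le, h2⟩
  · refine le_trans ?_ (primorial_le_four_pow (2 * n / 3))
    refine (Finset.prod_le_prod' fun p hp => (?_ : f p ≤ p)).trans ?_
    · obtain ⟨h1, h2⟩ := Finset.mem_filter.1 hp
      refine (pow_right_mono₀ (Finset.mem_filter.1 h1).2.one_lt.le ?_).trans (pow_one p).le
      exact Nat.factorization_choose_le_one (Nat.sqrt_lt'.mp <| not_le.1 h2)
    refine Finset.prod_le_prod_of_subset_of_one_le' (Finset.filter_subset _ _) ?_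
    exact fun p hp _ => (Finset.mem_filter.1 hp).2.one_lt.le

open Nat in
theorem two_primes_eventually (n : ℕ) (n_large : 512 ≤ n) :
    ∃ p q : ℕ, p.Prime ∧ q.Prime ∧ n < q ∧ q < p ∧ p ≤ 2 * n := by
  obtain ⟨p₀, hp₀, h1, h2⟩ := Nat.exists_prime_lt_and_le_two_mul n (by omega)
  by_contra hcon
  push Not at hcon
  have hother : ∀ p : ℕ, p.Prime → n < p → p ≤ 2 * n → p = p₀ := by
    intro p hp h3 h4
    rcases lt_trichotomy p p₀ with h | h | h
    · exact absurd h2 (by
        have := hcon p₀ p hp₀ hp h3 h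
        omega)
    · exact h
    · exact absurd h4 (by
        have := hcon p p₀ hp hp₀ h1 h
        omega)
  have n_pos : 0 < n := by omega
  have no_prime : 4 ^ n < n * n.centralBinom :=
    Nat.four_pow_lt_mul_centralBinom n (le_trans (by norm_num1) n_large)
  have hsplit : centralBinom n = p₀ ^ (centralBinom n).factorization p₀ *
      ∏ p ∈ Finset.range (2 * n / 3 + 1), p ^ (centralBinom n).factorization p := by
    have hnot : p₀ ∉ Finset.range (2 * n / 3 + 1) := by
      rw [Finset.mem_range]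
      have : 2 * n / 3 ≤ n := by omega
      omega
    rw [← Finset.prod_insert (f := fun p => p ^ (centralBinom n).factorization p) hnot]
    refine (Eq.trans ?_ n.prod_pow_factorization_centralBinom).symm
    apply Finset.prod_subset
    · intro x hx
      rw [Finset.mem_insert, Finset.mem_range] at hx
      rw [Finset.mem_range]
      have : 2 * n / 3 ≤ 2 * n := Nat.div_le_self _ _
      omega
    intro x hx h2x
    rw [Finset.mem_range, Nat.lt_succ_iff] at hx
    rw [Finset.mem_insert, Finset.mem_range, not_or, Nat.lt_succ_iff] at h2x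
    obtain ⟨hxp, h2x⟩ := h2x
    rw [not_le, div_lt_iff_lt_mul three_pos, mul_comm x] at h2x
    by_cases hpx : x.Prime
    · have hle : x ≤ n := by
        by_contra hgt
        push Not at hgt
        exact hxp (hother x hpx hgt hx)
      rw [factorization_centralBinom_of_two_mul_self_lt_three_mul (by omega) hle h2x, Nat.pow_zero]
    · rw [factorization_eq_zero_of_not_prime n.centralBinom hpx, Nat.pow_zero]
  have hb1 : p₀ ^ (centralBinom n).factorization p₀ ≤ 2 * n :=
    pow_factorization_choose_le (mul_pos two_pos n_pos)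
  have hb2 := prod_small_le n n_pos
  have hb3 : centralBinom n ≤ (2 * n) * ((2 * n) ^ Nat.sqrt (2 * n) * 4 ^ (2 * n / 3)) := by
    rw [hsplit]
    exact Nat.mul_le_mul hb1 hb2
  have hb4 := main_inequality2 n_large
  have hb5 : n * centralBinom n ≤ n * ((2 * n) * ((2 * n) ^ Nat.sqrt (2 * n) * 4 ^ (2 * n / 3))) :=
    Nat.mul_le_mul_left _ hb3
  have hb6 : n * ((2 * n) * ((2 * n) ^ Nat.sqrt (2 * n) * 4 ^ (2 * n / 3))) =
      n * (2 * n) * (2 * n) ^ Nat.sqrt (2 * n) * 4 ^ (2 * n / 3) := by ring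
  omega

/-- Two primes in `(m, 2m]` for `m ≥ 6`. -/
theorem two_primes (m : ℕ) (hm : 6 ≤ m) :
    ∃ p q : ℕ, p.Prime ∧ q.Prime ∧ m < q ∧ q < p ∧ p ≤ 2 * m := by
  rcases le_or_gt 512 m with h | h
  · exact two_primes_eventually m h
  have key : ∀ (a q p : ℕ), q.Prime → p.Prime → q < p → p ≤ 2 * a → a ≤ m → m < q →
      ∃ p q : ℕ, p.Prime ∧ q.Prime ∧ m < q ∧ q < p ∧ p ≤ 2 * m := by
    intro a q p hq hp hqp hpa ham hmq
    exact ⟨p, q, hp, hq, hmq, hqp, by omega⟩
  by_cases h1 : m < 7
  · exact key 6 7 11 (by norm_num) (by norm_num) (by norm_num) (by norm_num) hm h1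
  by_cases h2 : m < 11
  · exact key 7 11 13 (by norm_num) (by norm_num) (by norm_num) (by norm_num) (by omega) h2
  by_cases h3 : m < 13
  · exact key 11 13 17 (by norm_num) (by norm_num) (by norm_num) (by norm_num) (by omega) h3
  by_cases h4 : m < 17
  · exact key 13 17 23 (by norm_num) (by norm_num) (by norm_num) (by norm_num) (by omega) h4
  by_cases h5 : m < 23
  · exact key 17 23 29 (by norm_num) (by norm_num) (by norm_num) (by norm_num) (by omega) h5
  by_cases h6 : m < 29
  · exact key 23 29 37 (by norm_num) (by norm_num) (by norm_num) (by norm_num) (by omega) h6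
  by_cases h7 : m < 37
  · exact key 29 37 47 (by norm_num) (by norm_num) (by norm_num) (by norm_num) (by omega) h7
  by_cases h8 : m < 47
  · exact key 37 47 59 (by norm_num) (by norm_num) (by norm_num) (by norm_num) (by omega) h8
  by_cases h9 : m < 59
  · exact key 47 59 79 (by norm_num) (by norm_num) (by norm_num) (by norm_num) (by omega) h9
  by_cases h10 : m < 79
  · exact key 59 79 97 (by norm_num) (by norm_num) (by norm_num) (by norm_num) (by omega) h10
  by_cases h11 : m < 97
  · exact key 79 97 127 (by norm_num) (by norm_num) (by norm_num) (by norm_num) (by omega) h11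
  by_cases h12 : m < 127
  · exact key 97 127 163 (by norm_num) (by norm_num) (by norm_num) (by norm_num) (by omega) h12
  by_cases h13 : m < 163
  · exact key 127 163 211 (by norm_num) (by norm_num) (by norm_num) (by norm_num) (by omega) h13
  by_cases h14 : m < 211
  · exact key 163 211 277 (by norm_num) (by norm_num) (by norm_num) (by norm_num) (by omega) h14
  by_cases h15 : m < 277
  · exact key 211 277 359 (by norm_num) (by norm_num) (by norm_num) (by norm_num) (by omega) h15
  by_cases h16 : m < 359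
  · exact key 277 359 467 (by norm_num) (by norm_num) (by norm_num) (by norm_num) (by omega) h16
  by_cases h17 : m < 467
  · exact key 359 467 607 (by norm_num) (by norm_num) (by norm_num) (by norm_num) (by omega) h17
  · exact key 467 521 607 (by norm_num) (by norm_num) (by norm_num) (by norm_num) (by omega) (by omega)

/-- For `n ≥ 11` there are two odd primes in `(n/2, n]`. -/
theorem two_primes_half (n : ℕ) (hn : 11 ≤ n) :
    ∃ p q : ℕ, p.Prime ∧ q.Prime ∧ q < p ∧ p ≤ n ∧ n < 2 * q ∧ 2 < q := by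
  by_cases h11 : n = 11
  · subst h11
    exact ⟨11, 7, by norm_num, by norm_num, by norm_num, le_refl _, by norm_num, by norm_num⟩
  obtain ⟨p, q, hp, hq, h1, h2, h3⟩ := two_primes (n / 2) (by omega)
  exact ⟨p, q, hp, hq, h2, by omega, by omega, by omega⟩

end Cfsg.Agent.H16
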